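import Cfsg.Agent.H3.PGroup
import Cfsg.Agent.H3.PResidual
import Cfsg.Agent.H21.Quad

/-! Breadth and the order of the commutator subgroup of a `p`-group. -/

set_option autoImplicit false

namespace Cfsg.Agent.H79

open Subgroup
open scoped commutatorElement

universe u

/-- Triangular numbers. -/
def tri : ℕ → ℕ
  | 0 => 0
  | n + 1 => tri n + (n + 1)

theorem tri_eq (n : ℕ) : tri n = n * (n + 1) / 2 := by
  induction n with
  | zero => rfl
  | succ n ih =>
    rw [tri, ih, show (n + 1) * (n + 1 + 1) = n * (n + 1) + 2 * (n + 1) by ring,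
      Nat.add_mul_div_left _ _ two_pos]

variable {G : Type u} [Group G] {p : ℕ}

/-- The statement proved by induction. -/
def PA (p : ℕ) (G : Type u) [Group G] : Prop :=
  ∀ (n : ℕ) (H₁ H₂ : Subgroup G), H₁ ≠ ⊤ → (H₂ ≤ H₁ ∨ 3 ≤ H₂.index) →
    (∀ y, y ∉ H₁ → y ∉ H₂ → (centralizer ({y} : Set G)).index ≤ p ^ n) →
    Nat.card (commutator G) ≤ p ^ tri n

theorem br_sub (H : Subgroup G) (y : H) :
    (centralizer ({y} : Set H)).index = (centralizer ({(y : G)} : Set G)).relIndex H := by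
  rw [relIndex]
  congr 1
  ext x
  simp [mem_subgroupOf, mem_centralizer_singleton_iff, Subtype.ext_iff]

theorem card_comm_sub (H : Subgroup G) : Nat.card (commutator H) = Nat.card ↥⁅H, H⁆ := by
  rw [← H.map_subtype_commutator, card_map_of_injective H.subtype_injective]

theorem PA.sub {H : Subgroup G} (h : PA p H) (n : ℕ) (D K : Subgroup G) (h1 : ¬ H ≤ D)
    (h2 : K ≤ D ∨ 3 ≤ K.relIndex H)
    (h3 : ∀ y ∈ H, y ∉ D → y ∉ K → (centralizer ({y} : Set G)).relIndex H ≤ p ^ n) :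
    Nat.card ↥⁅H, H⁆ ≤ p ^ tri n := by
  rw [← card_comm_sub]
  refine h n (D.subgroupOf H) (K.subgroupOf H) (by rwa [Ne, subgroupOf_eq_top])
    (h2.imp_left fun h => comap_mono h) fun y a b => ?_
  rw [br_sub]
  exact h3 y y.2 a b

theorem sup_zpowers_of_prime {H : Subgroup G} (hi : H.index.Prime) {a : G} (ha : a ∉ H) :
    H ⊔ zpowers a = ⊤ :=
  (H3.isCoatom_of_index_prime hi).2 _ (lt_of_le_of_ne le_sup_left fun e =>
    ha (e ▸ mem_sup_right (mem_zpowers a)))

variable [Finite G]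

theorem br_step (H : Subgroup G) [H.Normal] (hi : H.index.Prime) :
    ∃ K : Subgroup G, Nat.card (commutator G) = Nat.card ↥⁅H, H⁆ * K.relIndex H ∧
      (∀ a, a ∉ H → K.relIndex H ≤ (centralizer ({a} : Set G)).index) ∧
      ∀ h ∈ H, h ∉ K →
        H.index * (centralizer ({h} : Set G)).relIndex H = (centralizer ({h} : Set G)).index := by
  set f := QuotientGroup.mk' ⁅H, H⁆ with hf
  have hs : Function.Surjective f := QuotientGroup.mk'_surjective _
  have hk : f.ker = ⁅H, H⁆ := QuotientGroup.ker_mk' _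
  haveI hV : IsMulCommutative (H.map f) := by
    rw [← le_centralizer_iff_isMulCommutative, ← commutator_eq_bot_iff_le_centralizer,
      ← map_commutator, Subgroup.map_eq_bot_iff, hk]
  haveI : (H.map f).Normal := Normal.map inferInstance f hs
  have hZ : ∀ a, a ∉ H → H.map f ⊓ center _ = H.map f ⊓ centralizer (zpowers (f a) : Set _) := by
    intro a ha
    refine le_antisymm (inf_le_inf_left _ (center_le_centralizer _)) (le_inf inf_le_left ?_)
    rw [← centralizer_univ, ← coe_top, ← map_top_of_surjective f hs, ← sup_zpowers_of_prime hi ha,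
      Subgroup.map_sup, H21.centralizer_sup, MonoidHom.map_zpowers]
    exact inf_le_inf_right _ (le_centralizer _)
  have hK : ∀ a, a ∉ H → ((center _).comap f).relIndex H =
      (centralizer (zpowers (f a) : Set _)).relIndex (H.map f) := by
    intro a ha
    rw [relIndex_comap, ← inf_relIndex_left, hZ a ha, inf_relIndex_left]
  refine ⟨(center _).comap f, ?_, fun a ha => ?_, fun h hh hK => ?_⟩
  · obtain ⟨a, ha⟩ : ∃ a, a ∉ H := by
      by_contra hcon
      push Not at hcon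
      rw [show H = ⊤ from eq_top_iff.2 fun x _ => hcon x, index_top] at hi
      exact Nat.not_prime_one hi
    have h1 : (commutator G).map f = ⁅H.map f, zpowers (f a)⁆ := by
      rw [_root_.commutator_def, map_commutator, ← sup_zpowers_of_prime hi ha, Subgroup.map_sup,
        MonoidHom.map_zpowers]
      refine le_antisymm ?_ (commutator_mono le_sup_left le_sup_right)
      have hn : ∀ X : Subgroup (G ⧸ ⁅H, H⁆), X ≤ normalizer
          ((⁅H.map f, zpowers (f a)⁆ : Subgroup (G ⧸ ⁅H, H⁆)) : Set (G ⧸ ⁅H, H⁆)) := fun X => by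
        refine le_trans (b := H.map f ⊔ zpowers (f a)) (le_top.trans ?_)
          (sup_le (normalizer_commutator_ge_left (H.map f) (zpowers (f a)))
            (normalizer_commutator_ge_right (H.map f) (zpowers (f a))))
        rw [← map_top_of_surjective f hs, ← sup_zpowers_of_prime hi ha, Subgroup.map_sup,
          MonoidHom.map_zpowers]
      refine H21.commutator_sup_left_le (hn _) (hn _)
        (H21.commutator_sup_right_le (hn _) (hn _) ?_ le_rfl)
        (H21.commutator_sup_right_le (hn _) (hn _) (Subgroup.commutator_comm_le _ _) ?_)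
      · exact (commutator_eq_bot_iff_le_centralizer.2 (le_centralizer _)).le.trans bot_le
      · exact (commutator_eq_bot_iff_le_centralizer.2 (le_centralizer _)).le.trans bot_le
    rw [hK a ha, ← H21.card_commutator_zpowers_eq_relIndex (by rw [normalizer_eq_top]; trivial),
      ← h1, ← relIndex_ker, hk]
    exact (H21.card_mul_relIndex_of_le (commutator_mono le_top le_top)).symm
  · refine le_trans (relIndex_le_of_le_left (H := H ⊓ centralizer {a}) ?_
      (H21.relIndex_ne_zero' _ _)) ?_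
    · rw [← map_le_iff_le_comap]
      refine le_trans ?_ ((hZ a ha).ge.trans inf_le_right)
      rintro _ ⟨x, hx, rfl⟩
      refine ⟨mem_map_of_mem f hx.1, H21.mem_centralizer_zpowers.2 ?_⟩
      rw [← map_mul, ← map_mul, mem_centralizer_singleton_iff.1 hx.2]
    · rw [inf_relIndex_left, ← relIndex_top_right]
      exact relIndex_le_of_le_right le_top (H21.relIndex_ne_zero' _ _)
  · rw [mul_comm]
    refine relIndex_mul_index fun c hc => ?_
    by_contra hcH
    refine hK (((hZ c hcH).ge ⟨mem_map_of_mem f hh, H21.mem_centralizer_zpowers.2 ?_⟩).2)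
    rw [← map_mul, ← map_mul, mem_centralizer_singleton_iff.1 hc]

variable [hp : Fact p.Prime]

theorem exists_third (hG : IsPGroup p G) {M₁ M₂ : Subgroup G} (h1 : IsCoatom M₁) (h2 : IsCoatom M₂)
    (hne : M₁ ≠ M₂) : ∃ H : Subgroup G, H.Normal ∧ H.index = p ∧ H ⊓ M₁ ≤ M₂ ∧ H ⊓ M₂ ≤ M₁ ∧
      ¬ H ≤ M₁ ∧ (p ≠ 2 → ∃ a, a ∉ H ∧ a ∉ M₁ ∧ a ∉ M₂) := by
  have key : ∀ M : Subgroup G, IsCoatom M → ∃ φ : G →* Multiplicative (ZMod p), φ.ker = M := by
    intro M hM
    haveI := hG.isNilpotent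
    haveI : M.Normal := NormalizerCondition.normal_of_coatom M normalizerCondition_of_isNilpotent hM
    have e : G ⧸ M ≃* Multiplicative (ZMod p) := mulEquivOfPrimeCardEq
      (H3.index_eq_of_isCoatom hG hM) (by simp)
    refine ⟨e.toMonoidHom.comp (QuotientGroup.mk' M), ?_⟩
    rw [← MonoidHom.comap_ker, (MonoidHom.ker_eq_bot_iff _).2 e.injective, MonoidHom.comap_bot,
      QuotientGroup.ker_mk']
  obtain ⟨φ, rfl⟩ := key _ h1
  obtain ⟨ψ, rfl⟩ := key _ h2
  obtain ⟨x, hx1, hx2⟩ := SetLike.not_le_iff_exists.1 fun h => hne ((h1.le_iff_eq h2.1).1 h).symm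
  obtain ⟨y, hy1, hy2⟩ := SetLike.not_le_iff_exists.1 fun h => hne ((h2.le_iff_eq h1.1).1 h)
  have hm : ∀ g, g ∈ (φ / ψ).ker ↔ φ g = ψ g := fun g => by
    rw [MonoidHom.mem_ker, MonoidHom.div_apply, div_eq_one]
  have a1 : (φ / ψ).ker ⊓ φ.ker ≤ ψ.ker := fun g hg => ((hm g).1 hg.1).symm.trans hg.2
  have a2 : (φ / ψ).ker ⊓ ψ.ker ≤ φ.ker := fun g hg => ((hm g).1 hg.1).trans hg.2
  have hi : (φ / ψ).ker.index = p := by
    rw [index_ker]
    have h3 := card_subgroup_dvd_card (φ / ψ).range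
    rw [show Nat.card (Multiplicative (ZMod p)) = p by simp] at h3
    rcases (Nat.dvd_prime hp.out).1 h3 with h | h
    · rw [← index_ker, index_eq_one] at h
      exact absurd (a1 ⟨h ▸ mem_top x, hx1⟩) hx2
    · exact h
  have a3 : ¬ (φ / ψ).ker ≤ φ.ker := fun h => by
    have := ((H3.isCoatom_of_index_prime (hi.symm ▸ hp.out)).le_iff_eq h1.1).1 h
    exact hx2 (a1 ⟨this ▸ hx1, hx1⟩)
  refine ⟨_, inferInstance, hi, a1, a2, a3, fun hp2 => ?_⟩
  obtain ⟨g, hg1, hg2⟩ := SetLike.not_le_iff_exists.1 a3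
  have b : ∀ z ∈ ψ.ker, z ∉ φ.ker → g * z ∉ φ.ker →
      ∃ a, a ∉ (φ / ψ).ker ∧ a ∉ φ.ker ∧ a ∉ ψ.ker := fun z z1 z2 z3 =>
    ⟨g * z, fun h => z2 (a2 ⟨(mul_mem_cancel_left hg1).1 h, z1⟩), z3,
      fun h => hg2 (a2 ⟨hg1, (mul_mem_cancel_right z1).1 h⟩)⟩
  by_cases c1 : g * y ∈ φ.ker
  · refine b y⁻¹ (inv_mem hy1) (fun h => hy2 (inv_mem_iff.1 h)) fun c2 => hg2 ?_
    have c3 : φ g ^ 2 = 1 := by
      rw [MonoidHom.mem_ker, map_mul] at c1 c2
      rw [map_inv, mul_inv_eq_one] at c2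
      rw [pow_two]
      rwa [← c2] at c1
    have c4 : φ g ^ p = 1 := by
      have := pow_card_eq_one' (x := φ g)
      rwa [show Nat.card (Multiplicative (ZMod p)) = p by simp] at this
    have c5 := (orderOf_dvd_iff_pow_eq_one.2 c3)
    have c6 := (orderOf_dvd_iff_pow_eq_one.2 c4)
    exact orderOf_eq_one_iff.1 (Nat.eq_one_of_dvd_coprimes
      ((Nat.coprime_primes Nat.prime_two hp.out).2 hp2.symm) c5 c6)
  · exact b y hy1 hy2 c1

omit [Finite G] hp in
theorem le_or_le_of_forall {X A B : Subgroup G} (h : ∀ x ∈ X, x ∉ A → x ∈ B) : X ≤ A ∨ X ≤ B :=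
  SubgroupClass.subset_union.1 fun x hx => or_iff_not_imp_left.2 (h x hx)

omit hp in
theorem br_le (H : Subgroup G) (y : G) :
    (centralizer ({y} : Set G)).relIndex H ≤ (centralizer ({y} : Set G)).index := by
  rw [← relIndex_top_right]
  exact relIndex_le_of_le_right le_top (H21.relIndex_ne_zero' _ _)

omit hp in
theorem br_two (hG : IsPGroup 2 G) (h0 : PA 2 G) (ih : ∀ M : Subgroup G, M ≠ ⊤ → PA 2 M) {m : ℕ}
    {D K : Subgroup G} (hD : D ≠ ⊤) (hK : K.index = 2)
    (h1 : ∀ y, y ∉ D → (centralizer ({y} : Set G)).index ≤ 2 ^ (m + 1))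
    (h2 : ∀ y, y ∉ D → y ∉ K → (centralizer ({y} : Set G)).index ≤ 2 ^ m) :
    Nat.card (commutator G) * 2 ≤ 2 ^ tri (m + 1) := by
  obtain ⟨M₁, hM₁, hDM⟩ := (eq_top_or_exists_le_coatom D).resolve_left hD
  have hKc := H3.isCoatom_of_index_prime (M := K) (hK ▸ Nat.prime_two)
  by_cases e : K ≤ M₁
  · have := h0 m M₁ K hM₁.1 (Or.inl e) fun y a b => h2 y (fun h => a (hDM h)) b
    rw [tri, pow_add]
    exact Nat.mul_le_mul this (Nat.le_self_pow (by omega) 2)
  obtain ⟨M, hn, hi, a1, a2, a3, -⟩ := exists_third hG hM₁ hKc fun h => e h.ge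
  obtain ⟨a, ha1, ha2⟩ := SetLike.not_le_iff_exists.1 e
  obtain ⟨K', b1, b2, b3⟩ := br_step M (hi ▸ Nat.prime_two)
  have hs : K'.relIndex M ≤ 2 ^ (m + 1) :=
    (b2 a fun h => ha2 (a2 ⟨h, ha1⟩)).trans (h1 a fun h => ha2 (hDM h))
  have hM : PA 2 M := ih M fun h => a3 (by rw [h, index_top] at hi; omega)
  have h3 : ∀ y ∈ M, y ∉ M₁ → (centralizer ({y} : Set G)).index ≤ 2 ^ m := fun y y1 y2 =>
    h2 y (fun h => y2 (hDM h)) fun h => y2 (a2 ⟨y1, h⟩)
  have h4 := hM.sub m M₁ M₁ a3 (Or.inl le_rfl) fun y y1 y2 _ => (br_le M y).trans (h3 y y1 y2)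
  rw [hi] at b3
  rw [b1]
  rcases m with _ | k
  · have h5 : M ≤ K' := (le_or_le_of_forall fun y y1 y2 => by
      by_contra y3
      have := b3 y y1 y3
      have := h3 y y1 y2
      have := H21.relIndex_ne_zero' (centralizer ({y} : Set G)) M
      omega).resolve_left a3
    rw [relIndex_eq_one.2 h5]
    simp only [tri] at h4 ⊢
    omega
  · by_cases c : 3 ≤ K'.relIndex M
    · have h5 := hM.sub k M₁ K' a3 (Or.inr c) fun y y1 y2 y3 => by
        have := b3 y y1 y3
        have := h3 y y1 y2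
        omega
      calc _ ≤ 2 ^ tri k * 2 ^ (k + 1 + 1) * 2 ^ (k + 1) :=
            Nat.mul_le_mul (Nat.mul_le_mul h5 hs) (Nat.le_self_pow (by omega) 2)
        _ = _ := by simp only [tri]; ring
    · calc _ ≤ 2 ^ tri (k + 1) * 2 * 2 ^ (k + 1) :=
            Nat.mul_le_mul (Nat.mul_le_mul h4 (by omega)) (Nat.le_self_pow (by omega) 2)
        _ = _ := by simp only [tri]; ring

theorem pa_step (hG : IsPGroup p G)
    (ih : ∀ (X : Type u) [Group X] [Finite X], IsPGroup p X → Nat.card X < Nat.card G → PA p X) :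
    PA p G := by
  intro n H₁ H₂ h1 h2 h3
  have ihs : ∀ M : Subgroup G, M ≠ ⊤ → Nat.card M < Nat.card G := fun M hM => by
    rw [← card_top (G := G)]; exact H21.card_lt_of_lt (lt_top_iff_ne_top.2 hM)
  obtain ⟨M₁, hM₁, hle⟩ := (eq_top_or_exists_le_coatom H₁).resolve_left h1
  by_cases hc : ∀ M : Subgroup G, IsCoatom M → M = M₁
  · obtain ⟨x, -, hx⟩ := SetLike.not_le_iff_exists.1 (top_le_iff.not.2 hM₁.1)
    have : zpowers x = ⊤ := (eq_top_or_exists_le_coatom _).resolve_right fun ⟨M, a, b⟩ =>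
      hx (hc M a ▸ b (mem_zpowers x))
    rw [_root_.commutator_def, ← this, commutator_eq_bot_iff_le_centralizer.2 (le_centralizer _),
      card_bot]
    exact Nat.one_le_pow _ _ hp.out.pos
  obtain ⟨M₂, hM₂, hne, hor⟩ : ∃ M₂ : Subgroup G, IsCoatom M₂ ∧ M₁ ≠ M₂ ∧ (H₂ ≤ M₁ ∨ H₂ ≤ M₂) := by
    by_cases e : H₂ ≤ M₁
    · push Not at hc
      obtain ⟨M, a, b⟩ := hc
      exact ⟨M, a, b.symm, Or.inl e⟩
    · have h4 := h2.resolve_left fun h => e (h.trans hle)
      obtain ⟨M, a, b⟩ := (eq_top_or_exists_le_coatom H₂).resolve_left fun h => by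
        rw [h, index_top] at h4; omega
      exact ⟨M, a, fun h => e (h ▸ b), Or.inr b⟩
  obtain ⟨H, hn, hi, a1, a2, a3, a4⟩ := exists_third hG hM₁ hM₂ hne
  have hn21 : ¬ M₂ ≤ M₁ := fun h => hne ((hM₂.le_iff_eq hM₁.1).1 h)
  have h4 : ∀ y ∈ H, y ∉ M₁ → (centralizer ({y} : Set G)).index ≤ p ^ n := fun y y1 y2 =>
    h3 y (fun h => y2 (hle h)) fun h => hor.elim (fun e => y2 (e h)) fun e => y2 (a2 ⟨y1, e h⟩)
  obtain ⟨a, ha, hb⟩ : ∃ a, a ∉ H ∧ (centralizer ({a} : Set G)).index ≤ p ^ n := by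
    by_cases e : M₂ ≤ H₂
    · have e1 : ¬ H₂ ≤ M₁ := fun h => hn21 (e.trans h)
      have e2 : H₂ = M₂ := le_antisymm (hor.resolve_left e1) e
      have e3 := h2.resolve_left fun h => e1 (h.trans hle)
      rw [e2, H3.index_eq_of_isCoatom hG hM₂] at e3
      obtain ⟨a, b1, b2, b3⟩ := a4 (by omega)
      exact ⟨a, b1, h3 a (fun h => b2 (hle h)) (e2 ▸ b3)⟩
    · by_contra hcon
      refine (le_or_le_of_forall (X := M₂) (A := M₁) (B := H₂) fun y y1 y2 => ?_).elim hn21 e
      by_contra y3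
      exact hcon ⟨y, fun h => y2 (a2 ⟨h, y1⟩), h3 y (fun h => y2 (hle h)) y3⟩
  obtain ⟨K, b1, b2, b3⟩ := br_step H (hi ▸ hp.out)
  have hHt : H ≠ ⊤ := fun h => ha (h ▸ mem_top a)
  have hH : PA p H := ih H (hG.to_subgroup H) (ihs H hHt)
  have hs := (b2 a ha).trans hb
  rw [hi] at b3
  rw [b1]
  by_cases c1 : K.relIndex H = 1
  · rw [c1, mul_one]
    exact hH.sub n M₁ M₁ a3 (Or.inl le_rfl) fun y y1 y2 _ => (br_le H y).trans (h4 y y1 y2)
  have c0 := H21.relIndex_ne_zero' K H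
  rcases n with _ | m
  · rw [pow_zero] at hs; omega
  have h5 : ∀ y ∈ H, y ∉ M₁ → y ∉ K → (centralizer ({y} : Set G)).relIndex H ≤ p ^ m :=
    fun y y1 y2 y3 => Nat.le_of_mul_le_mul_left
      ((b3 y y1 y3).le.trans ((h4 y y1 y2).trans (pow_succ' p m).le)) hp.out.pos
  by_cases c : 3 ≤ K.relIndex H
  · rw [tri, pow_add]
    exact Nat.mul_le_mul (hH.sub m M₁ K a3 (Or.inr c) h5) hs
  have c2 : K.relIndex H = 2 := by omega
  obtain rfl : p = 2 := by
    obtain ⟨k, hk⟩ := (hG.to_subgroup H).index (K.subgroupOf H)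
    exact ((Nat.prime_dvd_prime_iff_eq Nat.prime_two hp.out).1
      (Nat.prime_two.dvd_of_dvd_pow (n := k) (by rw [← hk]; exact c2.symm.dvd))).symm
  rw [c2, ← card_comm_sub]
  refine br_two (hG.to_subgroup H) hH (fun M hM => ih M ((hG.to_subgroup H).to_subgroup M)
    (lt_of_le_of_lt (card_le_card_group M) (ihs H hHt))) (D := M₁.subgroupOf H)
    (K := K.subgroupOf H) (by rwa [Ne, subgroupOf_eq_top]) c2 (fun y y1 => ?_) fun y y1 y2 => ?_
  · rw [br_sub]; exact (br_le H y).trans (h4 y y.2 y1)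
  · rw [br_sub]; exact h5 y y.2 y1 y2

theorem pa_all (n : ℕ) : ∀ (X : Type u) [Group X] [Finite X], IsPGroup p X → Nat.card X = n →
    PA p X := by
  induction n using Nat.strong_induction_on with
  | _ n ih =>
    intro X _ _ hX hn
    exact pa_step hX fun Y _ _ hY hlt => ih _ (hn ▸ hlt) Y hY rfl

end Cfsg.Agent.H79
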