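import Cfsg.Agent.H79.Duality
import Cfsg.Agent.H49.Hall

/-!
Groups of exponent four whose automorphism group is transitive on the involutions.
-/

namespace Cfsg.Agent.H79

open Finset Subgroup H49
open scoped commutatorElement IsMulCommutative

theorem two_pow_add_ne {x y z w : ℕ} (h1 : x < y) (h2 : x < z) (h3 : x < w) :
    2 ^ x + 2 ^ y ≠ 2 ^ z + 2 ^ w := by
  obtain ⟨y, rfl⟩ := Nat.exists_eq_add_of_lt h1
  obtain ⟨z, rfl⟩ := Nat.exists_eq_add_of_lt h2
  obtain ⟨w, rfl⟩ := Nat.exists_eq_add_of_lt h3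
  intro h
  have : 2 ^ x * (1 + 2 * 2 ^ y) = 2 ^ x * (2 * 2 ^ z + 2 * 2 ^ w) := by
    simp only [pow_add] at h; linarith
  have := Nat.eq_of_mul_eq_mul_left (by positivity) this
  omega

theorem shaw_arith {n C b c : ℕ} {a : ℕ} (ha : 1 ≤ a) (hn : n = 2 ^ a) (hb : a ≤ b) (hc : a ≤ c)
    (h1 : 2 ^ b + C = C * n + n) (h2 : ((n : ℤ) - C) ^ 2 = 2 ^ b * 2 ^ c) :
    C = 0 ∨ (b = 3 * a ∧ c = a) := by
  rcases lt_or_ge C n with h | h
  · left
    have h3 : (n : ℤ) * n ≤ 2 ^ b * 2 ^ c := by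
      rw [hn]; push_cast; gcongr <;> norm_num
    have : (C : ℤ) < n := by exact_mod_cast h
    by_contra h0
    have : (0 : ℤ) < C := by exact_mod_cast Nat.pos_of_ne_zero h0
    nlinarith
  right
  obtain ⟨d, rfl⟩ := Nat.exists_eq_add_of_le h
  have h3 : d ^ 2 = 2 ^ (b + c) := by
    have : ((d : ℤ)) ^ 2 = 2 ^ (b + c) := by rw [pow_add, ← h2]; push_cast; ring
    exact_mod_cast this
  obtain ⟨j, -, rfl⟩ := (Nat.dvd_prime_pow Nat.prime_two).1 (h3 ▸ dvd_pow_self d two_ne_zero)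
  have h4 : j * 2 = b + c := Nat.pow_right_injective le_rfl (by simpa [← pow_mul] using h3)
  have h5 : 2 ^ j + 2 ^ b = 2 ^ (2 * a) + 2 ^ (j + a) := by
    rw [two_mul, pow_add, pow_add, ← hn]; nlinarith
  have h6 : 2 ^ j * 2 ≤ 2 ^ (j + a) := by
    rw [← pow_succ]; exact Nat.pow_le_pow_right two_pos (by omega)
  have h7 : j < b := (Nat.pow_lt_pow_iff_right one_lt_two).1 (by
    have := Nat.two_pow_pos (2 * a); omega)
  rcases lt_trichotomy j (2 * a) with h8 | rfl | h8
  · exact absurd h5 (two_pow_add_ne h7 h8 (by omega))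
  · have := Nat.pow_right_injective le_rfl (add_left_cancel h5)
    omega
  · exact absurd h5.symm (two_pow_add_ne (by omega) h8 (by omega))

variable {Q : Type*} [Group Q] [Finite Q] {V : Subgroup Q}

theorem shaw_count (hQ : IsPGroup 2 Q) (hV : ∀ x, x ∈ V ↔ x ^ 2 = 1) (hc : V ≤ center Q)
    (hsq : ∀ u, u ^ 2 ∈ V) (ht : ∀ v w : Q, v ≠ 1 → v ^ 2 = 1 → w ≠ 1 → w ^ 2 = 1 →
      ∃ α : MulAut Q, α v = w) (h1 : V ≠ ⊥) :
    (∀ u w : Q, u ^ 2 = w ^ 2 → w⁻¹ * u ∈ V) ∨
      (Nat.card Q = Nat.card V ^ 3 ∧ ∀ z ∉ V, (𝒞[z]).index = Nat.card V) := by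
  classical
  haveI := Fintype.ofFinite Q
  have hz : ∀ v ∈ V, ∀ g, Commute g v := fun v hv g => mem_center_iff.1 (hc hv) g
  haveI : IsMulCommutative V := ⟨⟨fun a b => Subtype.ext (hz _ b.2 _)⟩⟩
  have hcm : ∀ u z : Q, ⁅u, z⁆ ∈ V := fun u z => by
    rw [show ⁅u, z⁆ = u ^ 2 * (u⁻¹ * z) ^ 2 * (z ^ 2)⁻¹ by
      simp only [commutatorElement_def, pow_two]; group]
    exact mul_mem (mul_mem (hsq _) (hsq _)) (inv_mem (hsq _))
  let s : Q → V := fun u => ⟨u ^ 2, hsq u⟩
  let κ : Q →* Q →* V := MonoidHom.mk' (fun z => MonoidHom.mk' (fun u => ⟨⁅u, z⁆, hcm u z⟩)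
    fun a b => Subtype.ext ((commutator_mul_left_of_central (hz _ (hcm _ _) _)).trans
      (hz _ (hcm _ _) _).eq)) fun a b => MonoidHom.ext fun u =>
    Subtype.ext (commutator_mul_right_of_central (hz _ (hcm _ _) _))
  have hs : ∀ u z, s (u * z) = κ z u * s u * s z := fun u z => Subtype.ext (by
    change (u * z) ^ 2 = ⁅u, z⁆ * u ^ 2 * z ^ 2
    rw [pow_two z, ← mul_assoc, mul_assoc _ (u ^ 2) z, ← (hz _ (hsq u) z).eq]
    simp only [commutatorElement_def, pow_two]; group)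
  have hs2 : ∀ v : V, v * v = 1 := fun v => Subtype.ext (by simpa [pow_two] using (hV v).1 v.2)
  let N : V → ℕ := fun v => #{u | s u = v}
  haveI := (nontrivial_iff_ne_bot V).2 h1
  obtain ⟨v₀, hv₀⟩ := exists_ne (1 : V)
  have hN : ∀ v ≠ 1, N v = N v₀ := fun v hv => by
    obtain ⟨α, hα⟩ := ht v v₀ (fun h => hv (Subtype.ext h)) ((hV _).1 v.2)
      (fun h => hv₀ (Subtype.ext h)) ((hV _).1 v₀.2)
    exact card_equiv α.toEquiv fun u => by
      simp only [mem_filter, mem_univ, true_and, s, Subtype.ext_iff, ← hα, MulEquiv.toEquiv_eq_coe,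
        EquivLike.coe_coe, ← map_pow, α.injective.eq_iff]
  have hN1 : N 1 = Nat.card V := by
    rw [Nat.card_eq_fintype_card, Fintype.card_subtype]
    exact congrArg card (filter_congr fun u _ => by simp [s, Subtype.ext_iff, hV])
  have hsum : ∀ f : V → ℂ, ∑ u, f (s u) = N v₀ * ∑ v, f v + (Nat.card V - N v₀) * f 1 := fun f => by
    rw [← sum_fiberwise (s := univ) s, mul_sum]
    have : ∀ v, ∑ u with s u = v, f (s u) =
        N v₀ * f v + if v = 1 then (Nat.card V - N v₀) * f 1 else 0 := fun v => by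
      rw [sum_congr rfl fun u hu => congrArg f (mem_filter.1 hu).2, sum_const, nsmul_eq_mul]
      split_ifs with h
      · rw [h, show (#_ : ℕ) = N 1 from rfl, hN1]; ring
      · rw [show (#_ : ℕ) = N v from rfl, hN v h, add_zero]
    simp [this, sum_add_distrib]
  obtain ⟨a, ha⟩ := (hQ.to_subgroup V).exists_card_eq
  obtain ⟨b, hb⟩ := hQ.exists_card_eq
  have ha1 : 1 ≤ a := Nat.pos_of_ne_zero fun h => h1 (by rwa [h, pow_zero, Subgroup.card_eq_one] at ha)
  have hle : ∀ {R : Subgroup Q} {c}, V ≤ R → Nat.card R = 2 ^ c → a ≤ c := fun h e =>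
    (Nat.pow_le_pow_iff_right one_lt_two).1 (ha ▸ e ▸ card_le_of_le h)
  have hQc : 2 ^ b + N v₀ = N v₀ * Nat.card V + Nat.card V := by
    have := hsum fun _ => 1
    simp only [sum_const, card_univ, nsmul_eq_mul, mul_one, ← Nat.card_eq_fintype_card, hb] at this
    exact_mod_cast (by rw [this]; ring : ((2 ^ b : ℕ) : ℂ) + N v₀ = N v₀ * Nat.card V + Nat.card V)
  by_cases hC : N v₀ = Nat.card V ∨ N v₀ = 0
  · refine .inl fun u w h => ?_
    by_cases h2 : s w = 1
    · have h3 := congrArg Subtype.val h2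
      exact mul_mem (inv_mem ((hV _).2 h3)) ((hV _).2 (h.trans h3))
    have h3 : N (s w) ≠ 0 := card_ne_zero.2 ⟨w, by simp⟩
    rw [hN _ h2] at h3
    have h4 : (univ.image fun v : V => w * (v : Q)) = univ.filter (fun u => s u = s w) :=
      eq_of_subset_of_card_le (fun x hx => by
        obtain ⟨v, -, rfl⟩ := mem_image.1 hx
        refine mem_filter.2 ⟨mem_univ _, Subtype.ext ?_⟩
        change (w * v) ^ 2 = w ^ 2
        rw [(hz _ v.2 w).mul_pow, (hV _).1 v.2, mul_one]) (by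
        rw [card_image_of_injective _ fun x y h => Subtype.ext (mul_left_cancel h), card_univ,
          ← Nat.card_eq_fintype_card, ← hC.resolve_right h3]
        exact (hN _ h2).le)
    obtain ⟨v, -, rfl⟩ := mem_image.1 (h4.ge (mem_filter.2 ⟨mem_univ u, Subtype.ext h⟩))
    simp
  push Not at hC
  have key : ∀ χ : V →* ℂˣ, χ ≠ 1 → b = 3 * a ∧ ∀ z, (∀ u, χ (κ z u) = 1) → z ∈ V := fun χ hχ => by
    let β : Q →* Q →* ℂˣ := (MonoidHom.compHom χ).comp κ
    let χ' := (Units.coeHom ℂ).comp χ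
    let f : β.ker →* ℂ := MonoidHom.mk ⟨fun z => χ' (s z), by simp [s, show (⟨1, _⟩ : V) = 1 from rfl]⟩
      fun x y => by
        have : χ (κ y x) = 1 := DFunLike.congr_fun y.2 (x : Q)
        simp [hs, χ', this]
    have hg : ∑ u, χ' (s u) = Nat.card V - N v₀ := by
      rw [hsum χ', sum_hom_units_eq_zero χ' fun h => hχ (MonoidHom.ext fun v =>
        Units.ext (DFunLike.congr_fun h v)), map_one, mul_zero, zero_add, mul_one]
    have hg2 : (∑ u, χ' (s u)) ^ 2 = Nat.card Q * ∑ z, f z := by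
      rw [pow_two, sum_mul_sum, sum_congr rfl fun u _ => (Equiv.sum_comp (Equiv.mulLeft u)
        fun z => χ' (s u) * χ' (s z)).symm, sum_comm, mul_sum]
      refine Eq.trans ?_ (sum_subtype (f := fun z => Nat.card Q * χ' (s z)) (p := (· ∈ β.ker))
        {z | z ∈ β.ker} (by simp))
      rw [sum_filter]
      refine sum_congr rfl fun z _ => ?_
      have : ∀ u, χ' (s u) * χ' (s (Equiv.mulLeft u z)) =
          (Units.coeHom ℂ).comp (β z) u * χ' (s z) := fun u => by
        rw [Equiv.coe_mulLeft, hs, mul_comm (κ z u), mul_assoc, ← map_mul, ← mul_assoc, hs2, one_mul,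
          map_mul]
        rfl
      rw [sum_congr rfl fun u _ => this u, ← sum_mul, sum_hom_units]
      have e : (Units.coeHom ℂ).comp (β z) = 1 ↔ z ∈ β.ker :=
        ⟨fun h => MonoidHom.ext fun u => Units.ext (DFunLike.congr_fun h u), fun h => by
          rw [MonoidHom.mem_ker.1 h, MonoidHom.comp_one]⟩
      simp only [e, Nat.card_eq_fintype_card]
      split_ifs <;> simp
    have hVR : V ≤ β.ker := fun v hv => MonoidHom.ext fun u => by
      change χ (κ v u) = 1
      rw [show κ v u = 1 from Subtype.ext (commutatorElement_eq_one_iff_commute.2 (hz v hv u)),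
        map_one]
    obtain ⟨c, hc'⟩ := (hQ.to_subgroup β.ker).exists_card_eq
    rw [hg, sum_hom_units] at hg2
    split_ifs at hg2
    · rw [← Nat.card_eq_fintype_card, hb, hc'] at hg2
      obtain ⟨h2, rfl⟩ := (shaw_arith ha1 ha (hle le_top (by rw [card_top, hb])) (hle hVR hc') hQc
        (by exact_mod_cast hg2)).resolve_left hC.2
      exact ⟨h2, fun z h => (eq_of_le_of_card_ge hVR (by rw [ha, hc'])).ge (MonoidHom.ext h)⟩
    · rw [Nat.cast_zero, mul_zero, pow_eq_zero_iff two_ne_zero, sub_eq_zero] at hg2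
      exact absurd (Nat.cast_injective hg2).symm hC.1
  obtain ⟨χ, hχ⟩ := CommGroup.exists_apply_ne_one_of_hasEnoughRootsOfUnity V ℂ hv₀
  refine .inr ⟨by rw [hb, ha, (key χ fun h => hχ (by simp [h])).1, mul_comm, pow_mul],
    fun z hzV => ?_⟩
  have h2 : (κ z).range = ⊤ := eq_top_iff.2 fun v _ =>
    (CommGroup.forall_monoidHom_apply_eq_one_iff ℂ _ v).1 fun χ h => by_contra fun h3 =>
      hzV ((key χ fun h => h3 (by simp [h])).2 z fun u => h _ ⟨u, rfl⟩)
  rw [show 𝒞[z] = (κ z).ker from Subgroup.ext fun u => by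
    rw [mem_cent1, MonoidHom.mem_ker, Subtype.ext_iff]
    exact commutatorElement_eq_one_iff_mul_comm.symm, index_ker, h2, card_top]

end Cfsg.Agent.H79
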