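import Cfsg.Agent.H79.Shaw
import Cfsg.Agent.H79.Gross
import Cfsg.Agent.H61.Small
import Cfsg.Agent.H23.BG12
import Cfsg.Agent.H81.Frob

/-!
Solvable groups with one class of involutions.
-/

namespace Cfsg.Agent.H79

open Subgroup H49
open scoped commutatorElement

variable {G : Type*} [Group G] [Finite G]

theorem shaw_cent {D V : Subgroup G} [D.Normal] (hD : IsPGroup 2 D) (hV : ∀ x, x ∈ V ↔ x ^ 2 = 1)
    (hVD : V ≤ D) (hc : D ≤ 𝒞(V)) (h4 : ∀ d ∈ D, d ^ 2 ∈ V) (h1 : V ≠ ⊥)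
    (hconj : ∀ x y : G, x ≠ 1 → x ^ 2 = 1 → y ≠ 1 → y ^ 2 = 1 → IsConj x y) {A : Subgroup G}
    (hA : (Nat.card A).Coprime 2) (hAV : A ≤ 𝒞(V)) : A ≤ 𝒞(D) ∨ D ⊓ 𝒞(A) ≤ V := by
  have hAD : A ≤ 𝒩(D) := le_normalizer_of_normal
  have hco := (H50.coprime_card_of_pgroup hD hA)
  have hs : Group.IsSolvable A ∨ Group.IsSolvable D := .inr (H50.solvable_of_pgroup hD)
  by_contra hne
  push Not at hne
  have h2 : ¬ ⁅D, A⁆ ≤ V := fun h => hne.1 (coprime_cent_of_stable hAD hco hs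
    (h.trans (cent_symm hAV)))
  rcases shaw_count (V := V.subgroupOf D) hD (fun x => by simp [mem_subgroupOf, hV, Subtype.ext_iff])
    (fun v hv => mem_center_iff.2 fun g => Subtype.ext (hc g.2 v hv).symm) (fun u => h4 u u.2)
    (fun v w h1 h2 h3 h4 => by
      obtain ⟨c, hc⟩ := isConj_iff.1 (hconj v w (by simpa using h1) (congrArg Subtype.val h2)
        (by simpa using h3) (congrArg Subtype.val h4))
      exact ⟨MulAut.conjNormal c, Subtype.ext hc⟩)
    (fun h => h1 (by rwa [subgroupOf_eq_bot, disjoint_iff, inf_eq_left.2 hVD] at h)) with h | h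
  · refine h2 (commutator_le.2 fun d hd a ha => ?_)
    have := h ⟨a * d⁻¹ * a⁻¹, Normal.conj_mem inferInstance _ (inv_mem hd) _⟩ ⟨d⁻¹, inv_mem hd⟩
      (Subtype.ext (by
        change (a * d⁻¹ * a⁻¹) ^ 2 = d⁻¹ ^ 2
        rw [conj_pow, ← hAV ha _ (h4 _ (inv_mem hd)), mul_inv_cancel_right]))
    simpa [mem_subgroupOf, commutatorElement_def, mul_assoc] using this
  rw [card_subgroupOf_of_le hVD] at h
  have hn : 1 < Nat.card V := (one_lt_card_iff_ne_bot V).2 h1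
  have h3 : ∀ z ∈ D, z ∉ V → Nat.card V * Nat.card ↥(D ⊓ 𝒞[z]) = Nat.card V ^ 3 := fun z hz hzV => by
    have h5 := (𝒞[(⟨z, hz⟩ : D)]).index_mul_card
    rw [h.2 ⟨z, hz⟩ hzV, h.1] at h5
    rw [← h5, ← card_subgroupOf_of_le (inf_le_left : D ⊓ 𝒞[z] ≤ D), inf_subgroupOf_left]
    congr 3; ext u; simp [mem_subgroupOf, mem_cent1, Subtype.ext_iff]
  have hDD : ⁅D, D⁆ ≤ V := commutator_le.2 fun u hu z hz => by
    rw [show ⁅u, z⁆ = u ^ 2 * (u⁻¹ * z) ^ 2 * (z ^ 2)⁻¹ by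
      simp only [commutatorElement_def, pow_two]; group]
    exact mul_mem (mul_mem (h4 _ hu) (h4 _ (mul_mem (inv_mem hu) hz))) (inv_mem (h4 _ hz))
  have hK : ⁅D, A⁆ ⊔ V ≤ 𝒞(D ⊓ 𝒞(A)) := sup_le (H49.commutator_eq_bot_iff.1
    (commutator_commutator_eq_bot_of_rotate
      (by rw [H49.commutator_eq_bot_iff.2 (cent_symm inf_le_right), commutator_bot_left])
      (H49.commutator_eq_bot_iff.2 (((commutator_mono inf_le_left le_rfl).trans hDD).trans
        (cent_symm hAV))))) (cent_symm (inf_le_left.trans hc))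
  have hKD : ⁅D, A⁆ ⊔ V ≤ D := sup_le (commutator_le_left _ _) hVD
  have hP := coprime_isProd_comm_cent hAD hco hs
  have hP' : IsProd (⁅D, A⁆ ⊔ V) (D ⊓ 𝒞(A)) D := by
    have := isProd_sup_of_norm_right (norm_of_cent hK)
    rwa [le_antisymm (sup_le hKD inf_le_left) (hP.sup_eq.ge.trans
      (sup_le_sup_right le_sup_left _))] at this
  have key : ∀ {X Y : Subgroup G}, X ⊔ Y = D → X ≤ 𝒞(Y) → ¬ X ≤ V → Nat.card Y < Nat.card V ^ 2 :=
    fun {X Y} e hXY hX => by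
      obtain ⟨z, hz, hzV⟩ := SetLike.not_le_iff_exists.1 hX
      have hzD : z ∈ D := e ▸ mem_sup_left hz
      have h5 := h3 z hzD hzV
      have hY : Y ≤ D ⊓ 𝒞[z] := le_inf (e ▸ le_sup_right) fun y hy => mem_cent1.2 (hXY hz y hy)
      refine (card_lt_of_lt (lt_of_le_of_ne hY fun e' => ?_)).trans_eq
        (Nat.eq_of_mul_eq_mul_left (by omega) (h5.trans (pow_succ' _ _)))
      have h6 : D ≤ 𝒞[z] := e ▸ sup_le (fun x hx => mem_cent1.2
        (hXY hx z (e'.ge ⟨hzD, mem_cent1.2 rfl⟩)).symm) (hY.trans inf_le_right)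
      rw [inf_eq_left.2 h6, h.1] at h5
      nlinarith [pow_pos (zero_lt_one.trans hn) 3]
  have h5 := key hP'.sup_eq hK fun h => h2 (le_sup_left.trans h)
  have h6 := key hP'.symm.sup_eq (cent_symm hK) hne.2
  have h7 := hP'.card_mul
  have h8 := card_le_of_le (le_inf le_sup_right (le_inf hVD (cent_symm hAV)) :
    V ≤ (⁅D, A⁆ ⊔ V) ⊓ (D ⊓ 𝒞(A)))
  rw [h.1] at h7
  have := Nat.mul_lt_mul'' h6 h5
  nlinarith [Nat.mul_le_mul_left (Nat.card V ^ 3) h8]

theorem shaw_core (hG : Group.IsSolvable G) (hO : pPrimeCore 2 G = ⊥)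
    (hconj : ∀ x y : G, x ≠ 1 → x ^ 2 = 1 → y ≠ 1 → y ^ 2 = 1 → IsConj x y) {x y : G}
    (hxy : x ≠ y) (hx : x ≠ 1) (hx2 : x ^ 2 = 1) (hy : y ≠ 1) (hy2 : y ^ 2 = 1) :
    (Nat.card (G ⧸ pCore 2 G)).Coprime 2 ∧ ∀ v : G, v ^ 2 = 1 → v ∈ 𝒞(pCore 2 G) := by
  set H := pCore 2 G
  have hH : IsPGroup 2 H := H22.isPGroup_pCore
  have hCH : 𝒞(H) ≤ H := H22.IsPSolvable.centralizer_pCore_le H22.isPSolvable_of_isSolvable hO
  have hH1 : H ≠ ⊥ := fun h => hx ((hCH.trans h.le) (by rw [h]; exact cent_symm bot_le (mem_top x)))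
  obtain ⟨z, hz, hz1, hz2⟩ := H69.exists_mem_orderOf_eq (hH.to_le inf_le_left)
    (H62.inf_cent_ne_bot hH hH1 le_normalizer fun r hr =>
      (hH ⟨r, hr⟩).imp fun k hk => by
        rw [show r ^ 2 ^ k = 1 from congrArg Subtype.val hk]; exact one_mem _)
  have hZ : ∀ v : G, v ^ 2 = 1 → v ∈ 𝒞(H) := fun v hv => by
    rcases eq_or_ne v 1 with rfl | h
    · exact one_mem _
    obtain ⟨c, rfl⟩ := isConj_iff.1 (hconj z v hz1 hz2 h hv)
    exact Normal.conj_mem inferInstance _ hz.2 c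
  refine ⟨?_, hZ⟩
  let V : Subgroup G :=
    { carrier := {v | v ^ 2 = 1}
      mul_mem' := fun {a b} ha hb => by
        rw [Set.mem_setOf_eq, Commute.mul_pow (hZ b hb a (hCH (hZ a ha))), ha, hb, one_mul]
      one_mem' := one_pow _
      inv_mem' := fun {a} ha => by rw [Set.mem_setOf_eq, inv_pow, ha, inv_one] }
  have hV : ∀ v, v ∈ V ↔ v ^ 2 = 1 := fun _ => Iff.rfl
  have hV1 : V ≠ ⊥ := fun h => hx (h.le hx2)
  let π := QuotientGroup.mk' H
  have hπ := QuotientGroup.mk'_surjective H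
  have h2 : ∀ {X : Subgroup G}, IsPi {2}ᶜ X → X ⊓ H = ⊥ := fun h =>
    h.inf_eq_bot' (isPi_of_isPGroup Nat.prime_two hH)
  have fin : ∀ {K X : Subgroup G} {r : ℕ} [K.Normal], r ≠ 2 → IsSylowOf r X K → V ⊓ 𝒞(X) = ⊥ →
      ∀ L : Subgroup (G ⧸ H), L.Normal → IsPi {2}ᶜ L → K.map π ≤ L ⊔ X.map π →
      (Nat.card (G ⧸ H)).Coprime 2 := fun {K X r} _ hr hX hc L _ hL hKL => by
    have h3 : IsPi {2}ᶜ 𝒩(X) := (isPi_compl_singleton Nat.prime_two).2 fun h => by
      obtain ⟨v, hv, hv2⟩ := exists_orderOf_eq_of_dvd_card Nat.prime_two h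
      have hvV : v ∈ V := (hV v).2 (hv2 ▸ pow_orderOf_eq_one v)
      have := hc.le ⟨hvV, cent_symm (H49.commutator_eq_bot_iff.1 (eq_bot_iff.2 ((le_inf
        (commutator_le_left_of_norm (zpowers_le.2 hv)) ((commutator_mono le_rfl (zpowers_le.2
          (hCH (hZ v hvV)))).trans (commutator_le_right _ _))).trans
          (h2 (hX.pi.compl_singleton_of_ne hr)).le))) (mem_zpowers v)⟩
      rw [mem_bot.1 this, orderOf_one] at hv2
      omega
    have h4 := congrArg (map π) (frattini_arg (M := ⊤) le_top le_normalizer_of_normal hX).sup_eq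
    rw [top_inf_eq, Subgroup.map_sup, map_top_of_surjective _ hπ] at h4
    rw [← card_top, ← isPi_compl_singleton_iff_coprime Nat.prime_two]
    exact (hL.sup (h3.map π) (.inr le_normalizer_of_normal)).of_le (h4.ge.trans (sup_le
      (hKL.trans (sup_le_sup_left (map_mono le_normalizer) _)) le_sup_right))
  by_contra hne
  obtain ⟨D, hDH, hn, h4, -, hDc⟩ := H61.exists_small_critical_ambient hH
  haveI : D.Normal := normal_iff_top_le_norm.2 (le_normalizer_of_normal.trans hn)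
  have hcyc : ∀ r : ℕ, r.Prime → IsCyclic (piCoreOf {r} (⊤ : Subgroup (G ⧸ H))) := fun r hr => by
    rcases eq_or_ne r 2 with rfl | hr2
    · rw [piCoreOf_map_eq_bot hr H22.pCore_quotient_pCore]; infer_instance
    haveI : (piCoreOf {r} (⊤ : Subgroup (G ⧸ H))).Normal :=
      normal_iff_top_le_norm.2 (norm_piCoreOf _ le_normalizer_of_normal)
    obtain ⟨R, hR⟩ := exists_sylowOf r ((piCoreOf {r} (⊤ : Subgroup (G ⧸ H))).comap π)
    have hRm := hR.map π
    rw [map_comap_eq_self_of_surjective hπ] at hRm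
    replace hRm := hRm.eq_self (piCoreOf_pi _ _)
    have hRV : R ≤ 𝒞(V) := by
      obtain ⟨⟨v, hv⟩, hv1⟩ := ne_bot_iff_exists_ne_one.1 fun h => hne (fin hr2 hR h ⊥ inferInstance
        (isPi_bot _) (by rw [map_comap_eq_self_of_surjective hπ, hRm, bot_sup_eq]))
      intro a ha w hw
      rcases eq_or_ne w 1 with rfl | h
      · simp
      obtain ⟨c, rfl⟩ := isConj_iff.1 (hconj v w (by simpa using hv1) hv.1 h hw)
      have h5 : c⁻¹ * a * c⁻¹⁻¹ ∈ R ⊔ H := by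
        have := Normal.conj_mem inferInstance _ (hR.le ha) c⁻¹
        rwa [← hRm, comap_map_eq, QuotientGroup.ker_mk'] at this
      have h6 := mem_cent1.1 ((show R ⊔ H ≤ 𝒞[v] from sup_le (fun a ha => mem_cent1.2 (hv.2 a ha))
        fun a ha => mem_cent1.2 (hZ v hv.1 a ha)) h5)
      calc c * v * c⁻¹ * a = c * (v * (c⁻¹ * a * c⁻¹⁻¹)) * c⁻¹ := by group
        _ = a * (c * v * c⁻¹) := by rw [← h6]; group
    have hR2 := hR.pi.compl_singleton_of_ne hr2
    have h5 : ∀ a ∈ R, a ∈ 𝒞(D) → a = 1 := fun a ha h => (h2 hR2).le ⟨ha, hCH (hDc a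
      (le_normalizer_of_normal (mem_zpowers a)) ((isPiNat_compl_singleton_iff_coprime
        Nat.prime_two).1 (hR2.elt ha)) h)⟩
    suffices IsCyclic R from hRm ▸ isCyclic_of_surjective _ (π.subgroupMap_surjective R)
    by_contra hc
    obtain ⟨E, hER, hE, hEc⟩ := H23.exists_elem_two_of_not_cyclic hr hr2 (hR.pi.isPGroup hr) hc
    have hDV : D ≤ 𝒞(V) := hDH.trans (cent_symm hZ)
    have h6 : ¬ D ≤ V := fun h => not_isCyclic_of_p2 hr hE hEc (by
      rw [show E = ⊥ from eq_bot_iff.2 fun a ha => h5 a (hER ha) (cent_anti h (hRV (hER ha)))]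
      infer_instance)
    have hVD : V ≤ D := fun v hv => by
      obtain ⟨d, hd, hd1, hd2⟩ := H69.exists_mem_orderOf_eq (hH.to_le hDH) fun h => h6 (h ▸ bot_le)
      rcases eq_or_ne v 1 with rfl | h
      · exact one_mem _
      obtain ⟨c, rfl⟩ := isConj_iff.1 (hconj d v hd1 hd2 h hv)
      exact Normal.conj_mem inferInstance _ hd c
    refine h6 (coprime_le_of_cent1 hE.1 (not_isCyclic_of_p2 hr hE hEc) le_normalizer_of_normal
      ((hR2.of_le hER).coprime' (isPi_of_isPGroup Nat.prime_two (hH.to_le hDH))) fun a ha h1 => ?_)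
    rw [← cent_zpowers]
    exact (shaw_cent (hH.to_le hDH) hV hVD hDV (fun d hd => (hV _).2 (by
      rw [← pow_mul]; exact h4 d hd)) hV1 hconj ((isPi_compl_singleton_iff_coprime Nat.prime_two).1
        (hR2.of_le (zpowers_le.2 (hER ha)))) (zpowers_le.2 (hRV (hER ha)))).resolve_left
      fun h => h1 (h5 a (hER ha) (h (mem_zpowers a)))
  have hF : ⁅(⊤ : Subgroup (G ⧸ H)), ⊤⁆ ≤ fittingOf ⊤ := (le_inf le_top (cent_symm
    (nilpotent_le_of_pcore (fittingOf_nil _) fun r hr _ => (pcore_fittingOf r ⊤).le.trans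
      (cent_symm (H50.der_cent_cyclic (hcyc r hr) (norm_piCoreOf _ le_normalizer_of_normal)))))).trans
    (cent_fittingOf_le inferInstance)
  obtain ⟨k, hk⟩ := (hH.to_le (show V ≤ H from fun v hv => hCH (hZ v hv))).exists_card_eq
  have h5 : ∀ v ∈ V, v ≠ 1 → (𝒞[v]).index + 1 = 2 ^ k := fun v hv h => by
    rw [← H81.card_isConj_eq_index, ← hk]
    refine Eq.trans ?_ ((Set.ncard_diff_singleton_add_one (s := (V : Set G)) V.one_mem
      (Set.toFinite _)).trans (Nat.card_coe_set_eq _).symm)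
    congr 1
    refine congrArg Set.ncard (Set.ext fun w => ⟨fun hw => ?_, fun hw => hconj v w h hv hw.2 hw.1⟩)
    obtain ⟨c, rfl⟩ := isConj_iff.1 hw
    exact ⟨(hV _).2 (by rw [conj_pow, hv, mul_one, mul_inv_cancel]), by simpa using h⟩
  obtain ⟨p, hp, hd⟩ := Nat.exists_prime_and_dvd (n := (𝒞[x]).index) fun h => by
    obtain ⟨c, rfl⟩ := isConj_iff.1 (hconj x y hx hx2 hy hy2)
    exact hxy (by rw [mem_cent1.1 ((index_eq_one.1 h).ge (mem_top c)), mul_inv_cancel_right])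
  have hp2 : p ≠ 2 := by
    rintro rfl
    have := h5 x hx2 hx
    have := Nat.pos_of_ne_zero (index_ne_zero_of_finite (H := 𝒞[x]))
    rcases k with _ | k <;> omega
  obtain ⟨P, hP⟩ := exists_sylowOf p (⊤ : Subgroup G)
  haveI : (P ⊔ (commutator (G ⧸ H)).comap π).Normal := Normal.of_commutator_le _
    (le_sup_of_le_right (map_le_iff_le_comap.1 ((map_commutator _ _ _).le.trans
      (commutator_mono le_top le_top))))
  refine hne (fin (K := P ⊔ (commutator (G ⧸ H)).comap π) hp2 (hP.sub le_sup_left le_top)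
    (eq_bot_iff.2 fun v hv => by_contra fun h => (hP.index_of_le (L := 𝒞[v])
      fun a ha => mem_cent1.2 (hv.2 a ha)).not_dvd hp rfl ?_) _ inferInstance
    (((isPi_compl_singleton_iff_coprime Nat.prime_two).2
      (coprime_fittingOf Nat.prime_two H22.pCore_quotient_pCore ⊤)).of_le hF)
    (by rw [Subgroup.map_sup, sup_comm]; exact sup_le_sup_right (map_comap_le _ _) _))
  rwa [relIndex_top_right, add_right_cancel ((h5 v hv.1 h).trans (h5 x hx2 hx).symm)]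

theorem homocyclic_of_trans {A : Type*} [CommGroup A] [Finite A] {p : ℕ} [hp : Fact p.Prime]
    (hA : IsPGroup p A)
    (h : ∀ x y : A, x ≠ 1 → x ^ p = 1 → y ≠ 1 → y ^ p = 1 → ∃ a : MulAut A, a x = y) :
    ∃ m r : ℕ, Nonempty (A ≃* (Fin r → Multiplicative (ZMod (p ^ m)))) := by
  classical
  obtain ⟨ι, _, n, hn, ⟨e⟩⟩ := CommGroup.equiv_prod_multiplicative_zmod_of_finite A
  let g : ι → A := fun i => e.symm (Pi.mulSingle i (Multiplicative.ofAdd 1))
  have hg : ∀ i, orderOf (g i) = n i := fun i => by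
    rw [MulEquiv.orderOf_eq, orderOf_piMulSingle, orderOf_ofAdd_eq_addOrderOf, ZMod.addOrderOf_one]
  have h1 : ∀ i, ∃ k, n i = p ^ (k + 1) := fun i => by
    obtain ⟨k, hk⟩ := IsPGroup.iff_orderOf.1 hA (g i)
    rw [hg] at hk
    rcases k with _ | k
    · exact absurd hk (hn i).ne'
    · exact ⟨k, hk⟩
  choose k hk using h1
  have h2 : ∀ i, g i ^ p ^ k i ≠ 1 ∧ (g i ^ p ^ k i) ^ p = 1 := fun i =>
    ⟨pow_ne_one_of_lt_orderOf (pow_pos hp.out.pos _).ne'
      (by rw [hg, hk]; exact Nat.pow_lt_pow_right hp.out.one_lt (Nat.lt_succ_self _)),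
      by rw [← pow_mul, ← pow_succ, ← hk, ← hg, pow_orderOf_eq_one]⟩
  have h3 : ∀ i j, k i ≤ k j := fun i j => not_lt.1 fun hlt => by
    obtain ⟨a, ha⟩ := h _ _ (h2 i).1 (h2 i).2 (h2 j).1 (h2 j).2
    haveI : NeZero (n j) := NeZero.of_gt (hn j)
    have h4 : e (g j ^ p ^ k j) j = 1 := by
      rw [← ha, map_pow, map_pow, Pi.pow_apply, ← orderOf_dvd_iff_pow_eq_one]
      refine (_root_.orderOf_dvd_natCard _).trans ?_
      rw [Nat.card_congr Multiplicative.toAdd, Nat.card_zmod, hk]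
      exact pow_dvd_pow p hlt
    refine (h2 j).1 (e.injective ?_)
    rw [map_pow, MulEquiv.apply_symm_apply, ← Pi.mulSingle_pow] at h4 ⊢
    rw [Pi.mulSingle_eq_same] at h4
    rw [h4, Pi.mulSingle_one, map_one]
  obtain ⟨m, rfl⟩ : ∃ m, n = fun _ => p ^ m := by
    rcases isEmpty_or_nonempty ι with _ | ⟨⟨i⟩⟩
    · exact ⟨0, Subsingleton.elim _ _⟩
    · exact ⟨k i + 1, funext fun j => by rw [hk, le_antisymm (h3 j i) (h3 i j)]⟩
  exact ⟨m, _, ⟨e.trans (MulEquiv.arrowCongr (Fintype.equivFin ι) (MulEquiv.refl _))⟩⟩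

end Cfsg.Agent.H79
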